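import Cfsg.Agent.H808.RV.FEmb

/-!
# The frame of `G₂(q)` (helper808, TEAM RV)

`frameA_g2` : for every Sylow 2-subgroup of `G₂(q)`, `q` a power of `p ≥ 5`, the frame consisting of a long and a short
root `SL₂(q)`, which have the same involution.
-/

set_option autoImplicit false
set_option linter.unusedSectionVars false

namespace Cfsg.Agent.H808.RV

open Subgroup Cfsg Cfsg.Lie Cfsg.Lie.ChevalleyDatum Cfsg.Agent.ChevalleyStructure
  Cfsg.Agent.ChevalleyStructure.Elts Cfsg.Agent.ChevalleyStructure.NPerm Cfsg.Agent.ChevalleyStructure.CoxeterGeom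
  Cfsg.Agent.ChevalleyStructure.RootVec
  Cfsg.Agent.Nodes.RGDChev Cfsg.Agent.H412.OT Cfsg.Agent.H3.OT Cfsg.Agent.Nodes.Reps
open Cfsg.Agent.Nodes.RGDFoldSL (wS hS coe_wS coe_hS psi psi_up psi_lo psi_hS map_up map_lo map_hS)
open Cfsg.Agent.ChevalleyStructure.SL2Hom (up lo mem_closure_SL2)
open Cfsg.Agent.H102.RV (Fund IsSyl Comps FrameIn)
open Cfsg.Agent.GpExc.Field (glMap glMap_xG glMap_mem glMap_injective)
open Cfsg.Agent.H167.EX (ph coe_ph SL)
open Cfsg.Agent.H563.RV.LemA (pz pz_lt Tab Ort Dist lemA_hom_single)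

universe u v w

section Norm

variable {D : ChevalleyDatum} (hD : InList D) {K : Type u} [Field K]

theorem mono_norm_of {r : ℕ} (hr : r < D.nroots) {n : GL D.Idx K} (hnN : n ∈ D.monomialSubgroup K)
    (h1 : ((permHom hD K ⟨n, hnN⟩ ⟨r, hr⟩ : Fin D.nroots) : ℕ) = r ∨
      ((permHom hD K ⟨n, hnN⟩ ⟨r, hr⟩ : Fin D.nroots) : ℕ) = D.neg r) :
    ∀ x ∈ (psi hD K r).range, n * x * n⁻¹ ∈ (psi hD K r).range := by
  have hneg := neg_lt hD hr
  have h2 : ((permHom hD K ⟨n, hnN⟩ ⟨D.neg r, hneg⟩ : Fin D.nroots) : ℕ) = r ∨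
        ((permHom hD K ⟨n, hnN⟩ ⟨D.neg r, hneg⟩ : Fin D.nroots) : ℕ) = D.neg r := by
    rw [perm_neg hD _ hr]
    rcases h1 with h | h <;> rw [h]
    · exact Or.inr rfl
    · exact Or.inl (neg_neg_eq' hD hr)
  refine range_conj hD hr (fun a => ?_) (fun a => ?_)
  · obtain ⟨c, -, hc⟩ := conj_xG hD ⟨n, hnN⟩ ⟨r, hr⟩
    have h3 := hc a
    simp only at h3
    rw [h3]
    rcases h1 with h | h <;> rw [h]
    · exact xG_mem_range hD hr _
    · exact xG_neg_mem_range hD hr _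
  · obtain ⟨c, -, hc⟩ := conj_xG hD ⟨n, hnN⟩ ⟨D.neg r, hneg⟩
    have h3 := hc a
    simp only at h3
    rw [h3]
    rcases h2 with h | h <;> rw [h]
    · exact xG_mem_range hD hr _
    · exact xG_neg_mem_range hD hr _

/-- `C_G(h_r(-1))` normalises the root `SL₂`, general form -/
theorem cent_norm_of [Finite K] (h2 : (2 : K) ≠ 0) {r : ℕ} (hr : r < D.nroots) (hA : tabA D r = true)
    (hN : ∀ n (hn : n ∈ D.monomialSubgroup K), n * hG hD r (-1) = hG hD r (-1) * n →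
      ((permHom hD K ⟨n, hn⟩ ⟨r, hr⟩ : Fin D.nroots) : ℕ) = r ∨
      ((permHom hD K ⟨n, hn⟩ ⟨r, hr⟩ : Fin D.nroots) : ℕ) = D.neg r)
    {g : GL D.Idx K} (hg : g ∈ D.group K) (hgz : g * hG hD r (-1) = hG hD r (-1) * g) :
    ∀ x ∈ (psi hD K r).range, g * x * g⁻¹ ∈ (psi hD K r).range := by
  have hm1 : (-1 : K) ≠ 0 := neg_ne_zero.2 one_ne_zero
  have hz := hG_mem hD hr hm1
  have hZ : zpowers (hG hD r (-1 : K)) ≤ D.diagonalSubgroup K := by rw [zpowers_le]; exact hz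
  have hc : g ∈ centralizer (zpowers (hG hD r (-1 : K)) : Set (GL D.Idx K)) := by
    rw [mem_centralizer_iff]
    intro x hx
    obtain ⟨n, rfl⟩ := mem_zpowers_iff.1 hx
    exact ((show Commute g (hG hD r (-1 : K)) from hgz).zpow_right n).symm
  obtain ⟨u, hu, k, hk, hkc, v, hv, rfl⟩ := cent_form hD hZ hg hc
  have hS : ∀ s ∈ PsiZ D K (zpowers (hG hD r (-1 : K))), s < D.nroots ∧ (s = r ∨ s = D.neg r ∨ orth D r s = true) := by
    intro s hs
    refine ⟨hs.1, tabA_spec hA hs.1 ?_⟩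
    have h3 := hs.2 _ (mem_zpowers _)
    rw [chi_hG hD hr hs.1 hm1] at h3
    exact neg_one_zpow_eq h2 h3
  have hkz : k * hG hD r (-1) = hG hD r (-1) * k := (mem_centralizer_iff.1 hkc _ (mem_zpowers _)).symm
  intro x hx
  have h1 := gs_norm hD hr hS hv x hx
  have h3 := mono_norm_of hD hr hk (hN k hk hkz) _ h1
  have h5 := gs_norm hD hr hS hu _ h3
  have e : u * k * v * x * (u * k * v)⁻¹ = u * (k * (v * x * v⁻¹) * k⁻¹) * u⁻¹ := by group
  rw [e]
  exact h5

/-- parities of the image of a root under an element of `N` centralising `h_r(-1)` -/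
theorem parity_of_comm (h2 : (2 : K) ≠ 0) {r : ℕ} (hr : r < D.nroots) (n : ↥(D.monomialSubgroup K))
    (hn : (n : GL D.Idx K) * hG hD r (-1 : K) = hG hD r (-1 : K) * (n : GL D.Idx K)) {j : ℕ} (hj : j < D.rank) :
    (prC D ((permHom hD K n ⟨r, hr⟩ : Fin D.nroots) : ℕ) (D.simple j) - prC D r (D.simple j)) % 2 = 0 := by
  have hm1 : (-1 : K) ≠ 0 := neg_ne_zero.2 one_ne_zero
  have hz := hG_mem hD hr hm1
  obtain ⟨s, hs⟩ : ∃ s, s = (permHom hD K n)⁻¹ ⟨D.simple j, simple_lt hD hj⟩ := ⟨_, rfl⟩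
  have h1 : permHom hD K n s = ⟨D.simple j, simple_lt hD hj⟩ := by rw [hs]; exact Equiv.apply_symm_apply _ _
  have h3 := chi_perm hD n hz s
  have e : (n : GL D.Idx K) * hG hD r (-1) * (n : GL D.Idx K)⁻¹ = hG hD r (-1) := by rw [hn, mul_inv_cancel_right]
  rw [e, chi_hG hD hr (Fin.is_lt _) hm1, chi_hG hD hr s.2 hm1] at h3
  have h4 := pr_perm hD n ⟨r, hr⟩ s
  rw [h1] at h3 h4
  have h5 := neg_one_zpow_congr h2 h3
  simp only at h4
  rw [← h4] at h5
  rw [pr_eq, pr_eq] at h5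
  simp only at h5
  omega

/-- long roots -/
def lngB (D : ChevalleyDatum) (r : ℕ) : Bool :=
  (List.range D.nroots).all fun s => (s == r) || (s == D.neg r) || (decide (prC D r s ≤ 1) && decide (-1 ≤ prC D r s))

theorem lngB_perm {r : ℕ} (hr : r < D.nroots) (n : ↥(D.monomialSubgroup K)) (h : lngB D r = true) :
    lngB D ((permHom hD K n ⟨r, hr⟩ : Fin D.nroots) : ℕ) = true := by
  unfold lngB at h ⊢
  rw [List.all_eq_true] at h ⊢
  intro s hs
  have hs' := List.mem_range.1 hs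
  obtain ⟨s', hs1⟩ : ∃ s', s' = (permHom hD K n)⁻¹ ⟨s, hs'⟩ := ⟨_, rfl⟩
  have h1 : permHom hD K n s' = ⟨s, hs'⟩ := by rw [hs1]; exact Equiv.apply_symm_apply _ _
  have h3 := h s' (List.mem_range.2 s'.2)
  have h4 := pr_perm hD n ⟨r, hr⟩ s'
  rw [h1] at h4
  simp only at h4
  rw [pr_eq, pr_eq] at h4
  simp only [Bool.or_eq_true, beq_iff_eq, Bool.and_eq_true, decide_eq_true_iff] at h3 ⊢
  rcases h3 with (h3 | h3) | ⟨h3, h5⟩
  · left; left
    have e : s' = ⟨r, hr⟩ := Fin.ext h3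
    rw [e] at h1
    rw [h1]
  · left; right
    have e : s' = ⟨D.neg r, neg_lt hD hr⟩ := Fin.ext h3
    rw [e] at h1
    rw [← perm_neg hD n hr, h1]
  · right
    rw [h4]
    exact ⟨h3, h5⟩

theorem lngB_perm_iff {r : ℕ} (hr : r < D.nroots) (n : ↥(D.monomialSubgroup K)) :
    lngB D ((permHom hD K n ⟨r, hr⟩ : Fin D.nroots) : ℕ) = lngB D r := by
  rw [Bool.eq_iff_iff]
  refine ⟨fun h => ?_, lngB_perm hD hr n⟩
  have h1 := lngB_perm hD (Fin.is_lt (permHom hD K n ⟨r, hr⟩)) n⁻¹ h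
  have h3 : permHom hD K n⁻¹ ⟨((permHom hD K n ⟨r, hr⟩ : Fin D.nroots) : ℕ), Fin.is_lt _⟩ = ⟨r, hr⟩ := by
    rw [map_inv]
    exact Equiv.symm_apply_apply (permHom hD K n) _
  rw [h3] at h1
  exact h1

/-- the roots with the same parities and length -/
def tabB' (D : ChevalleyDatum) (r : ℕ) : Bool :=
  (List.range D.nroots).all fun r' => (r' == r) || (r' == D.neg r) || (lngB D r' != lngB D r) ||
    (List.range D.rank).any fun j => (prC D r' (D.simple j) - prC D r (D.simple j)) % 2 != 0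

theorem perm_of_comm' (h2 : (2 : K) ≠ 0) {r : ℕ} (hr : r < D.nroots) (hB : tabB' D r = true)
    (n : ↥(D.monomialSubgroup K)) (hn : (n : GL D.Idx K) * hG hD r (-1 : K) = hG hD r (-1 : K) * (n : GL D.Idx K)) :
    ((permHom hD K n ⟨r, hr⟩ : Fin D.nroots) : ℕ) = r ∨ ((permHom hD K n ⟨r, hr⟩ : Fin D.nroots) : ℕ) = D.neg r := by
  unfold tabB' at hB
  have h1 := List.all_eq_true.1 hB _ (List.mem_range.2 (Fin.is_lt (permHom hD K n ⟨r, hr⟩)))
  simp only [Bool.or_eq_true, beq_iff_eq, List.any_eq_true, List.mem_range, bne_iff_ne, ne_eq] at h1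
  rcases h1 with ((h1 | h1) | h1) | ⟨j, hj, h1⟩
  · exact Or.inl h1
  · exact Or.inr h1
  · exact absurd (lngB_perm_iff hD hr n) h1
  · exact absurd (parity_of_comm hD h2 hr n hn hj) h1

end Norm

/-! ### tables -/

def FG2 : List ℕ := [11, 7]
def SG2 : List (List ℕ) := [[], [11]]

theorem lt_G2 : ∀ s ∈ FG2, s < chevG2.nroots := by decide +kernel
theorem tabA_G2 : ∀ r ∈ FG2, tabA chevG2 r = true := by decide +kernel
theorem tabB_G2 : ∀ r ∈ FG2, tabB' chevG2 r = true := by decide +kernel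
theorem tabC_G2 : tabC chevG2 FG2 = true := by decide +kernel
theorem tabR_G2 : TabR chevG2 2 FG2 := by unfold TabR; decide +kernel
theorem tabE_G2 : TabE chevG2 2 FG2 SG2 := by decide +kernel
theorem tabO_G2 : tabO chevG2 FG2 = true := by decide +kernel
theorem tabZ_G2 : tabZ chevG2 FG2 = true := by decide +kernel
theorem sub_G2 : ∀ I ∈ SG2, ∀ r ∈ I, r ∈ FG2 := by decide +kernel
theorem tabK_G2 : ∀ a ∈ FG2, ∀ j : Fin 2, (prC chevG2 a (chevG2.simple j) - prC chevG2 11 (chevG2.simple j)) % 2 = 0 := by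
  decide +kernel

/-- Frames for every Sylow 2-subgroup with one involution, with Lemma A -/
def HasFrame1 (p : ℕ) (S : Type v) [Group S] : Prop :=
  ∀ P : Sylow 2 S, ∃ (ι : Type) (_ : Finite ι) (_ : Nonempty ι) (L : ι → Subgroup S) (z : S),
    FrameD (P : Subgroup S) L (fun _ => z) ∧ ∀ R : Subgroup S, Odd (Nat.card R) → ¬ p ∣ Nat.card R →
      (∀ x ∈ P, ∀ r ∈ R, x * r * x⁻¹ ∈ R) → ∀ r ∈ R, z * r = r * z

theorem g2T : IsType chevG2 2 CoxeterMatrix.G₂ := by simp [IsType, typeList]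

section Main

variable {K : Type u} [Field K]

/-- **The frame of `G₂(q)`.** -/
theorem frameA_g2 [Finite K] {p : ℕ} [hpK : CharP K p] (hpp : p.Prime) (hp5 : 5 ≤ p)
    {S : Type v} [Group S] [Finite S] (hS : Nonempty (S ≃* chevG2.group K)) : HasFrame1 p S := by
  intro P
  have hfp := Fact.mk hpp
  have hp := g2T
  have := Fintype.ofFinite K
  have hD := hp.inList
  obtain ⟨p', e, hp', hpF', hpk', -, -, hk⟩ := Cfsg.Agent.H129.TorusUntw.exists_closure (F := K) rfl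
  have hpe : p' = p := CharP.eq K hpF' hpK
  subst hpe
  obtain ⟨ψ⟩ := hS
  obtain ⟨f, hf, hfG, hrange⟩ : ∃ f : S →* GL chevG2.Idx K, Function.Injective f ∧ (∀ x, f x ∈ chevG2.group K) ∧
      ∀ x ∈ chevG2.group K, x ∈ f.range :=
    ⟨(chevG2.group K).subtype.comp ψ.toMonoidHom, (chevG2.group K).subtype_injective.comp ψ.injective,
      fun x => (ψ x).2, fun x hx => ⟨ψ.symm ⟨x, hx⟩, by simp⟩⟩
  have hm1 : (-1 : K) ≠ 0 := neg_ne_zero.2 one_ne_zero
  have h2 : (2 : K) ≠ 0 := two_ne hp5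
  have hc5 : 5 ≤ Nat.card K := hp5.trans (card_field hpp)
  have h4 : 4 ≤ Nat.card K := by omega
  have hj : ∀ r ∈ FG2, Function.Injective (psi hD K r) := by
    intro r hr
    obtain ⟨j, hj⟩ := tabZ_spec hp tabZ_G2 hr
    exact psi_injective hD h2 h4 (lt_G2 r hr) (simple_lt hD (lt_rank hp j)) hj
  have hjle : ∀ r ∈ FG2, (psi hD K r).range ≤ f.range := by
    rintro r hr _ ⟨A, rfl⟩
    exact hrange _ (psi_mem_group hD (lt_G2 r hr) A)
  have hzeq : ∀ r ∈ FG2, hG hD r (-1 : K) = hG hD 11 (-1 : K) := by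
    intro r hr
    refine tor_ext hp (hG_mem hD (lt_G2 r hr) hm1) (hG_mem hD (lt_G2 11 (by decide)) hm1) fun j => ?_
    rw [chi_hG hD (lt_G2 r hr) (simple_lt hD (lt_rank hp j)) hm1,
      chi_hG hD (lt_G2 11 (by decide)) (simple_lt hD (lt_rank hp j)) hm1, pr_eq, pr_eq]
    have h1 := neg_one_zpow_of_even (K := K) (tabK_G2 r hr j)
    rw [zpow_sub₀ hm1] at h1
    exact (div_eq_one_iff_eq (zpow_ne_zero _ hm1)).1 h1
  obtain ⟨z, hz⟩ : ∃ z : S, f z = hG hD 11 (-1 : K) := hrange _ (hG_mem_group hD _ _)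
  have hzj : ∀ r ∈ FG2, f z = psi hD K r (hS (-1)) := by
    intro r hr
    rw [psi_hS hD (lt_G2 r hr), hzeq r hr, hz]
  let L : {r // r ∈ FG2} → Subgroup S := fun r => (psi hD K r).range.comap f
  have hfund : ∀ r, Fund (L r) z := by
    intro r
    refine fund_of hf h2 h4 (hj r r.2) (hjle r r.2) (hzj r r.2) fun g hg A => ?_
    have h6 : f g * hG hD r (-1 : K) = hG hD r (-1 : K) * f g := by
      rw [hzeq r r.2, ← hz, ← map_mul, hg, map_mul]
    exact cent_norm_of hD h2 (lt_G2 r r.2) (tabA_G2 r r.2)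
      (fun n hn hnz => perm_of_comm' hD h2 (lt_G2 r r.2) (tabB_G2 r r.2) ⟨n, hn⟩ hnz) (hfG g) h6 _ ⟨A, rfl⟩
  have hcomm : ∀ r r' : {r // r ∈ FG2}, r ≠ r' → ∀ a ∈ L r, ∀ b ∈ L r', a * b = b * a := by
    rintro r r' hne a ⟨A, hA⟩ b ⟨B, hB⟩
    apply hf
    have h6 := tabO_spec tabO_G2 r.2 r'.2 (fun h => hne (Subtype.ext h))
    rw [map_mul, map_mul, ← hA, ← hB]
    exact psi_comm hD (lt_G2 r r.2) (lt_G2 r' r'.2) h6.1 h6.2 _ _
  have hinv : ∀ t : S, orderOf t = 2 → (∀ r, ∀ x ∈ L r, t * x = x * t) →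
      t ∈ closure (Set.range fun _ : {r // r ∈ FG2} => z) := by
    intro t ht htc
    have hc : ∀ r ∈ FG2, ∀ A, f t * psi hD K r A = psi hD K r A * f t := by
      intro r hr A
      obtain ⟨a, ha⟩ := hjle r hr ⟨A, rfl⟩
      have h6 := htc ⟨r, hr⟩ a ⟨A, ha.symm⟩
      rw [← ha, ← map_mul, h6, map_mul]
    obtain ⟨I, hI, e⟩ := inv_form hp h2 (E := ⊤) (by
        have hE : Nat.card (⊤ : Subfield K) = Nat.card K := Nat.card_congr (Equiv.Set.univ K)
        rw [hE]; exact hc5) lt_G2 tabC_G2 (fix_of_tabR hp lt_G2 tabR_G2)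
      (fun I hI r hr => lt_G2 r (sub_G2 I hI r hr)) tabE_G2 (hfG t)
      (by rw [← map_mul, H102.RV.sq_of_orderOf ht, map_one])
      (fun r hr => by
        have h6 := hc r hr (up 1)
        rwa [psi_up hD (lt_G2 r hr)] at h6)
      (fun r hr c _ hc0 => by
        have h6 := hc r hr (hS c)
        rwa [psi_hS hD (lt_G2 r hr)] at h6)
    have hzc : z ∈ closure (Set.range fun _ : {r // r ∈ FG2} => z) :=
      subset_closure ⟨⟨11, by decide⟩, rfl⟩
    unfold SG2 at hI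
    simp only [List.mem_cons, List.not_mem_nil, or_false] at hI
    rcases hI with rfl | rfl
    · have h1 : t = 1 := hf (by rw [e, map_one]; rfl)
      rw [h1]
      exact one_mem _
    · have h1 : t = z := hf (by rw [e, hz]; unfold zP; simp)
      rw [h1]
      exact hzc
  obtain ⟨g, hg⟩ := exists_frame hfund (fun r Q hQ => syl_quat hf h2 (hj r r.2) (hjle r r.2) (hzj r r.2) hQ)
    hcomm hinv P
  refine ⟨{r // r ∈ FG2}, inferInstance, ⟨⟨11, by decide⟩⟩, _, _, hg, ?_⟩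
  intro R hRodd hRp hPR
  let k := AlgebraicClosure K
  let fK : K →+* k := algebraMap K k
  let φ : S →* ↥(chevG2.group k) :=
    ((glMap chevG2 fK).comp f).codRestrict (chevG2.group k) fun x => glMap_mem hD fK (hfG x)
  have hφ : Function.Injective φ := fun a b h => hf (glMap_injective chevG2 fK (congrArg Subtype.val h))
  have hcoe : ∀ x, ((φ x : ↥(chevG2.group k)) : GL chevG2.Idx k) = glMap chevG2 fK (f x) := fun _ => rfl
  choose y hyP hyz using hg.sq
  have hB : ∀ r : {r // r ∈ FG2}, ∃ B, f (y r) = f g * psi hD K r B * (f g)⁻¹ := by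
    intro r
    have h1 : y r ∈ (L r).map (MulAut.conj g).toMonoidHom := (hyP r).2
    rw [H102.RV.mem_map_conj] at h1
    obtain ⟨B, hB⟩ := h1
    refine ⟨B, ?_⟩
    rw [hB, map_mul, map_mul, map_inv]
    group
  choose B hB using hB
  have hBB : ∀ r, B r * B r = hS (-1) := by
    intro r
    have e1 : f (g * z * g⁻¹) = f g * psi hD K r (B r * B r) * (f g)⁻¹ := by
      rw [← hyz r, map_mul, hB r, map_mul]
      group
    apply hj r r.2
    rw [← hzj r r.2]
    rw [map_mul, map_mul, map_inv] at e1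
    exact (mul_left_cancel (mul_right_cancel e1)).symm
  classical
  let y' : ℕ → S := fun a => if h : a ∈ FG2 then y ⟨a, h⟩ else 1
  let A : ℕ → SL k := fun a => if h : a ∈ FG2 then Matrix.SpecialLinearGroup.map fK (B ⟨a, h⟩) else 1
  have hy' : ∀ a (h : a ∈ FG2), y' a = y ⟨a, h⟩ := fun a h => dif_pos h
  have hA' : ∀ a (h : a ∈ FG2), A a = Matrix.SpecialLinearGroup.map fK (B ⟨a, h⟩) := fun a h => dif_pos h
  have key := lemA_hom_single hp (k := k) p' hp5 hk Cfsg.Agent.H563.RV.LemA.dist_G2 (L := FG2)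
    Cfsg.Agent.H563.RV.LemA.tab_G2 (Cfsg.Agent.H563.RV.LemA.ort_G2 hp) (A := A) (by
      intro a ha
      rw [hA' a ha, ← map_mul, hBB, map_hS, map_neg, map_one])
    hφ (g := φ g) (y := y') (by
      intro a ha
      rw [hy' a ha, hA' a ha, pz_lt hp (lt_G2 a ha)]
      apply Subtype.ext
      rw [hcoe, hB]
      rw [map_mul, map_mul, map_inv]
      show _ = glMap chevG2 fK (f g) * psi hD k a _ * (glMap chevG2 fK (f g))⁻¹
      rw [← glMap_psi hD fK (lt_G2 a ha)]) (R := R) hRodd hRp (by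
      intro a ha x hx
      rw [hy' a ha]
      exact hPR _ (hyP ⟨a, ha⟩).1 x hx)
  intro r hr
  have h6 := key 11 (by decide) r hr
  rw [hy' 11 (by decide), hyz] at h6
  exact h6

end Main

end Cfsg.Agent.H808.RV
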