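import Cfsg.Agent.H808.RV.GTwo
import Cfsg.Agent.ChevalleyStructure.D4Fixed

/-!
# The frame of `³D₄(q)`, first part: the centraliser of the involution in `D₄(q³)` (helper808, TEAM RV)
-/

set_option autoImplicit false
set_option linter.unusedSectionVars false

namespace Cfsg.Agent.H808.RV

open Subgroup Cfsg Cfsg.Lie Cfsg.Lie.ChevalleyDatum Cfsg.Agent.ChevalleyStructure
  Cfsg.Agent.ChevalleyStructure.Elts Cfsg.Agent.ChevalleyStructure.NPerm Cfsg.Agent.ChevalleyStructure.CoxeterGeom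
  Cfsg.Agent.ChevalleyStructure.RootVec Cfsg.Agent.ChevalleyStructure.CoxeterGeomTypes
  Cfsg.Agent.Nodes.RGDChev Cfsg.Agent.H412.OT Cfsg.Agent.H3.OT Cfsg.Agent.Nodes.Reps
  Cfsg.Agent.Tits.Roots Cfsg.Agent.Tits.Core
open Cfsg.Agent.Nodes.RGDFoldSL (wS hS coe_wS coe_hS psi psi_up psi_lo psi_hS psi_wS map_up map_lo map_hS map_wS)
open Cfsg.Agent.ChevalleyStructure.SL2Hom (up lo mem_closure_SL2)
open Cfsg.Agent.ChevalleyStructure.D4Fixed (sig fix mem_fix X Y X_mem Y_mem x14_mem x9_mem twisted_induction twisted_le_fix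
  exists_frob sig_xU)
open Cfsg.Agent.ChevalleyStructure.D4Cols (xU coe_xU)
open Cfsg.Agent.ChevalleyStructure.GraphSymm

universe u v w

/-! ### general facts -/

/-- a vector whose pairings are divisible by `c` is invariant modulo `c` -/
theorem rep_modc {D : ChevalleyDatum} {l : ℕ} {M : CoxeterMatrix (Fin l)} (hp : IsType D l M) {W : Type*} [Group W]
    (cs : CoxeterSystem M W) {c : ℤ} {v : Fin l → ℤ} {m : Fin l → ℤ}
    (hm : ∀ i, pairing (cartanOf D l) i v = c * m i) (w : W) :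
    ∃ u : Fin l → ℤ, rep cs hp.isCartan w v = v + c • u := by
  obtain ⟨ω, rfl⟩ := cs.wordProd_surjective w
  induction ω with
  | nil => exact ⟨0, by rw [CoxeterSystem.wordProd_nil, map_one, smul_zero, add_zero]; rfl⟩
  | cons i ω ih =>
    obtain ⟨u, hu⟩ := ih
    refine ⟨rep cs hp.isCartan (cs.simple i) u - m i • sr i, ?_⟩
    rw [CoxeterSystem.wordProd_cons, rep_mul_apply, hu, map_add, map_zsmul]
    have h1 : rep cs hp.isCartan (cs.simple i) v = v - (c * m i) • sr i := by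
      rw [rep_simple_eq, hm]
    rw [h1, smul_sub, mul_smul]
    abel

theorem mono_map_of {D : ChevalleyDatum} (hD : InList D) {K : Type u} [Field K] {r r' : ℕ} (hr : r < D.nroots)
    (hr' : r' < D.nroots) {n : GL D.Idx K} (hnN : n ∈ D.monomialSubgroup K)
    (h1 : ((permHom hD K ⟨n, hnN⟩ ⟨r, hr⟩ : Fin D.nroots) : ℕ) = r' ∨
      ((permHom hD K ⟨n, hnN⟩ ⟨r, hr⟩ : Fin D.nroots) : ℕ) = D.neg r') :
    ∀ x ∈ (psi hD K r).range, n * x * n⁻¹ ∈ (psi hD K r').range := by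
  have hneg := neg_lt hD hr
  have h2 : ((permHom hD K ⟨n, hnN⟩ ⟨D.neg r, hneg⟩ : Fin D.nroots) : ℕ) = r' ∨
        ((permHom hD K ⟨n, hnN⟩ ⟨D.neg r, hneg⟩ : Fin D.nroots) : ℕ) = D.neg r' := by
    rw [perm_neg hD _ hr]
    rcases h1 with h | h <;> rw [h]
    · exact Or.inr rfl
    · exact Or.inl (neg_neg_eq' hD hr')
  refine range_conj hD hr (fun a => ?_) (fun a => ?_)
  · obtain ⟨c, -, hc⟩ := conj_xG hD ⟨n, hnN⟩ ⟨r, hr⟩
    have h3 := hc a
    simp only at h3
    rw [h3]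
    rcases h1 with h | h <;> rw [h]
    · exact xG_mem_range hD hr' _
    · exact xG_neg_mem_range hD hr' _
  · obtain ⟨c, -, hc⟩ := conj_xG hD ⟨n, hnN⟩ ⟨D.neg r, hneg⟩
    have h3 := hc a
    simp only at h3
    rw [h3]
    rcases h2 with h | h <;> rw [h]
    · exact xG_mem_range hD hr' _
    · exact xG_neg_mem_range hD hr' _

/-! ### tables -/

theorem d4T : IsType chevD4 4 coxeterD4 := by simp [IsType, typeList]

def FD4 : List ℕ := [23, 18, 13, 12]
def SD4 : List (List ℕ) := [[], [23]]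
/-- the frame with signs -/
def BD4 : List ℕ := [23, 18, 13, 12, 0, 5, 10, 11]
/-- the absolute value of a root -/
def absD (s : ℕ) : ℕ := if s < 12 then 23 - s else s

theorem lt_D4 : ∀ s ∈ FD4, s < chevD4.nroots := by decide +kernel
theorem tabA_D4 : ∀ r ∈ FD4, tabA chevD4 r = true := by decide +kernel
theorem tabP_D4 : ∀ r ∈ FD4, ∀ j < chevD4.rank, (prC chevD4 r (chevD4.simple j) - prC chevD4 23 (chevD4.simple j)) % 2 = 0 := by
  decide +kernel
theorem tabQ_D4 : ∀ r < chevD4.nroots, (∀ j < chevD4.rank, (prC chevD4 r (chevD4.simple j) -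
    prC chevD4 23 (chevD4.simple j)) % 2 = 0) → r ∈ BD4 := by decide +kernel
theorem tabS_D4 : ∀ r ∈ FD4, ∀ s < chevD4.nroots, prC chevD4 23 s % 2 = 0 → prC chevD4 r s % 2 = 0 := by decide +kernel
theorem tabC_D4 : tabC chevD4 FD4 = true := by decide +kernel
theorem tabR_D4 : TabR chevD4 4 FD4 := by unfold TabR; decide +kernel
theorem tabE_D4 : TabE chevD4 4 FD4 SD4 := by decide +kernel
theorem tabO_D4 : tabO chevD4 FD4 = true := by decide +kernel
theorem tabZ_D4 : tabZ chevD4 FD4 = true := by decide +kernel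
theorem sub_D4 : ∀ I ∈ SD4, ∀ r ∈ I, r ∈ FD4 := by decide +kernel

theorem abs_D4 : ∀ s ∈ BD4, absD s ∈ FD4 ∧ (s = absD s ∨ s = chevD4.neg (absD s)) := by decide +kernel

def v41 : Fin 4 → ℤ := ![1, 0, 1, 0]
def v42 : Fin 4 → ℤ := ![1, 0, 0, 1]
def m41 : Fin 4 → ℤ := ![1, -1, 1, 0]
def m42 : Fin 4 → ℤ := ![1, -1, 0, 1]

theorem pair_v41 : ∀ i : Fin 4, pairing (cartanOf chevD4 4) i v41 = 2 * m41 i := by decide +kernel
theorem pair_v42 : ∀ i : Fin 4, pairing (cartanOf chevD4 4) i v42 = 2 * m42 i := by decide +kernel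
theorem vec_v41 : v41 = vec chevD4 4 18 + vec chevD4 4 13 := by decide +kernel
theorem vec_v42 : v42 = vec chevD4 4 18 + vec chevD4 4 12 := by decide +kernel

theorem tabM_D4 : ∀ s1 ∈ BD4, ∀ s2 ∈ BD4, ∀ s3 ∈ BD4, absD s1 ≠ 23 → absD s2 ≠ 23 → absD s3 ≠ 23 →
    (∀ i : Fin 4, (vec chevD4 4 s1 i + vec chevD4 4 s2 i - v41 i) % 2 = 0) →
    (∀ i : Fin 4, (vec chevD4 4 s1 i + vec chevD4 4 s3 i - v42 i) % 2 = 0) →
    absD s1 = 18 ∧ absD s2 = 13 ∧ absD s3 = 12 := by decide +kernel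

section D4

variable {K : Type u} [Field K]

theorem hz_D4 (hD : InList chevD4) {r : ℕ} (hr : r ∈ FD4) : hG hD r (-1 : K) = hG hD 23 (-1 : K) := by
  have hm1 : (-1 : K) ≠ 0 := neg_ne_zero.2 one_ne_zero
  have hp := d4T
  refine tor_ext hp (hG_mem hD (lt_D4 r hr) hm1) (hG_mem hD (lt_D4 23 (by decide)) hm1) fun j => ?_
  rw [chi_hG hD (lt_D4 r hr) (simple_lt hD (lt_rank hp j)) hm1,
    chi_hG hD (lt_D4 23 (by decide)) (simple_lt hD (lt_rank hp j)) hm1, pr_eq, pr_eq]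
  have h1 := neg_one_zpow_of_even (K := K) (tabP_D4 r hr j (lt_rank hp j))
  rw [zpow_sub₀ hm1] at h1
  exact (div_eq_one_iff_eq (zpow_ne_zero _ hm1)).1 h1

/-- **The centraliser of the involution in `D₄(K)`** permutes the four root `SL₂`. -/
theorem cent_D4 [Finite K] (h2 : (2 : K) ≠ 0) (hD : InList chevD4) {g : GL chevD4.Idx K} (hg : g ∈ chevD4.group K)
    (hgz : g * hG hD 23 (-1) = hG hD 23 (-1) * g) : ∃ a : ℕ → ℕ,
      (∀ s ∈ FD4, a s ∈ FD4 ∧ ∀ x ∈ (psi hD K s).range, g * x * g⁻¹ ∈ (psi hD K (a s)).range) ∧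
      (a 23 = 23 → a 18 = 18 ∧ a 13 = 13 ∧ a 12 = 12) := by
  have hp := d4T
  have hm1 : (-1 : K) ≠ 0 := neg_ne_zero.2 one_ne_zero
  have h23 : 23 < chevD4.nroots := lt_D4 23 (by decide)
  have hz := hG_mem hD h23 hm1
  have hZ : zpowers (hG hD 23 (-1 : K)) ≤ chevD4.diagonalSubgroup K := by rw [zpowers_le]; exact hz
  have hc : g ∈ centralizer (zpowers (hG hD 23 (-1 : K)) : Set (GL chevD4.Idx K)) := by
    rw [mem_centralizer_iff]
    intro x hx
    obtain ⟨n, rfl⟩ := mem_zpowers_iff.1 hx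
    exact ((show Commute g (hG hD 23 (-1 : K)) from hgz).zpow_right n).symm
  obtain ⟨u, hu, k, hk, hkc, v, hv, rfl⟩ := cent_form hD hZ hg hc
  have hS : ∀ r ∈ FD4, ∀ s ∈ PsiZ chevD4 K (zpowers (hG hD 23 (-1 : K))), s < chevD4.nroots ∧
      (s = r ∨ s = chevD4.neg r ∨ orth chevD4 r s = true) := by
    intro r hr s hs
    refine ⟨hs.1, tabA_spec (tabA_D4 r hr) hs.1 (tabS_D4 r hr s hs.1 ?_)⟩
    have h3 := hs.2 _ (mem_zpowers _)
    rw [chi_hG hD h23 hs.1 hm1] at h3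
    exact neg_one_zpow_eq h2 h3
  have hkz : k * hG hD 23 (-1) = hG hD 23 (-1) * k := (mem_centralizer_iff.1 hkc _ (mem_zpowers _)).symm
  let n : ↥(chevD4.monomialSubgroup K) := ⟨k, hk⟩
  classical
  let π : ℕ → ℕ := fun s => if h : s < chevD4.nroots then ((permHom hD K n ⟨s, h⟩ : Fin chevD4.nroots) : ℕ) else 0
  have hπ : ∀ s (h : s < chevD4.nroots), π s = ((permHom hD K n ⟨s, h⟩ : Fin chevD4.nroots) : ℕ) := fun s h => dif_pos h
  have hπlt : ∀ s (h : s < chevD4.nroots), π s < chevD4.nroots := fun s h => by rw [hπ s h]; exact Fin.is_lt _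
  have hπinj : ∀ s t (h : s < chevD4.nroots) (h' : t < chevD4.nroots), π s = π t → s = t := by
    intro s t h h' e
    rw [hπ s h, hπ t h'] at e
    have h1 := (permHom hD K n).injective (Fin.ext e)
    exact congrArg Fin.val h1
  have hπneg : ∀ s (h : s < chevD4.nroots), π (chevD4.neg s) = chevD4.neg (π s) := by
    intro s h
    rw [hπ _ (neg_lt hD h), hπ s h, perm_neg hD n h]
  have hπB : ∀ s ∈ FD4, π s ∈ BD4 := by
    intro s hs
    refine tabQ_D4 _ (hπlt s (lt_D4 s hs)) fun j hj => ?_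
    have h1 := parity_of_comm hD h2 (lt_D4 s hs) n (by rw [hz_D4 hD hs]; exact hkz) hj
    have h3 := tabP_D4 s hs j hj
    rw [hπ s (lt_D4 s hs)]
    omega
  refine ⟨fun s => absD (π s), fun s hs => ?_, fun h => ?_⟩
  · obtain ⟨h1, h3⟩ := abs_D4 _ (hπB s hs)
    refine ⟨h1, fun x hx => ?_⟩
    have h5 := gs_norm hD (lt_D4 s hs) (hS s hs) hv x hx
    have h6 := mono_map_of hD (lt_D4 s hs) (lt_D4 _ h1) hk (by rw [← hπ s (lt_D4 s hs)]; exact h3) _ h5
    have h7 := gs_norm hD (lt_D4 _ h1) (hS _ h1) hu _ h6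
    have e : u * k * v * x * (u * k * v)⁻¹ = u * (k * (v * x * v⁻¹) * k⁻¹) * u⁻¹ := by group
    rw [e]
    exact h7
  · let cs : CoxeterSystem coxeterD4 coxeterD4.Group := coxeterD4.toCoxeterSystem
    obtain ⟨w, hw⟩ := exists_rep hp cs n
    have hwv : ∀ s (h : s < chevD4.nroots), vec chevD4 4 (π s) = rep cs hp.isCartan w (vec chevD4 4 s) := by
      intro s h
      rw [hπ s h]
      exact hw ⟨s, h⟩
    have hne : ∀ s ∈ FD4, s ≠ 23 → absD (π s) ≠ 23 := by
      intro s hs h23' e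
      have hs' := lt_D4 s hs
      obtain ⟨-, h3⟩ := abs_D4 _ (hπB s hs)
      obtain ⟨-, h4⟩ := abs_D4 _ (hπB 23 (by decide))
      simp only at h
      rw [e] at h3
      rw [h] at h4
      have h5 : π s = π 23 ∨ π s = chevD4.neg (π 23) := by
        rcases h3 with h3 | h3 <;> rcases h4 with h4 | h4 <;> rw [h3, h4]
        · exact Or.inl rfl
        · right; decide +kernel
        · exact Or.inr rfl
        · exact Or.inl rfl
      rcases h5 with h5 | h5
      · exact h23' (hπinj _ _ hs' h23 h5)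
      · rw [← hπneg 23 h23] at h5
        have h6 := hπinj _ _ hs' (neg_lt hD h23) h5
        rw [h6] at hs
        revert hs
        decide +kernel
    obtain ⟨u1, hu1⟩ := rep_modc hp cs pair_v41 w
    obtain ⟨u2, hu2⟩ := rep_modc hp cs pair_v42 w
    refine tabM_D4 (π 18) (hπB 18 (by decide)) (π 13) (hπB 13 (by decide)) (π 12) (hπB 12 (by decide))
      (hne 18 (by decide) (by decide)) (hne 13 (by decide) (by decide)) (hne 12 (by decide) (by decide)) ?_ ?_
    · intro i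
      have h5 := congrFun hu1 i
      conv at h5 => lhs; rw [vec_v41]
      rw [map_add, ← hwv 18 (lt_D4 18 (by decide)), ← hwv 13 (lt_D4 13 (by decide))] at h5
      simp only [Pi.add_apply, Pi.smul_apply, smul_eq_mul] at h5
      omega
    · intro i
      have h5 := congrFun hu2 i
      conv at h5 => lhs; rw [vec_v42]
      rw [map_add, ← hwv 18 (lt_D4 18 (by decide)), ← hwv 12 (lt_D4 12 (by decide))] at h5
      simp only [Pi.add_apply, Pi.smul_apply, smul_eq_mul] at h5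
      omega

end D4

end Cfsg.Agent.H808.RV
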